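-- Project SIEGEL (S5072): common tools for CONN2A / CONN2C / MEET (helper24).
import Mathlib
import Cfsg.Agent.Lib.Helper31.Siegel.Defs

set_option autoImplicit false
open scoped Matrix

namespace Cfsg.Agent.Lib.Helper24.Siegel

open Cfsg.Agent.Lib.Helper31.Siegel

universe u

variable {n : ℕ} {F : Type u} [Field F]

theorem sl_B {p r : Vec n F} (h : IsSingLine p r) : B p r = 0 := by
  have h1 := Q_add p r
  rw [h.2.2.2, h.2.1, h.2.2.1] at h1
  linear_combination -h1

theorem sl_ne_left {p r : Vec n F} (h : IsSingLine p r) : p ≠ 0 := by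
  have h1 := h.1.ne_zero 0
  simpa using h1

theorem sl_ne_right {p r : Vec n F} (h : IsSingLine p r) : r ≠ 0 := by
  have h1 := h.1.ne_zero 1
  simpa using h1

/-- Singular dual pair of a totally singular pair `p, r`, built from any dual vectors. -/
theorem sing_dual {p r wp w : Vec n F} (hQp : QF n F p = 0) (hQr : QF n F r = 0)
    (hpr : B p r = 0) (h1 : B p wp = 1) (h2 : B r wp = 0) (h3 : B p w = 0) (h4 : B r w = 1) :
    ∃ x y : Vec n F, IsSingLine x y ∧ B p x = 1 ∧ B p y = 0 ∧ B r x = 0 ∧ B r y = 1 ∧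
      ∀ s : Vec n F, B s y = B s w - QF n F w * B s r := by
  have hBrr : B r r = 0 := by rw [B_self, hQr, mul_zero]
  have hBpp : B p p = 0 := by rw [B_self, hQp, mul_zero]
  have hrp : B r p = 0 := by rw [B_comm, hpr]
  have h1' : B wp p = 1 := by rw [B_comm, h1]
  have h2' : B wp r = 0 := by rw [B_comm, h2]
  have h3' : B w p = 0 := by rw [B_comm, h3]
  have h4' : B w r = 1 := by rw [B_comm, h4]
  obtain ⟨y, hy⟩ : ∃ y : Vec n F, y = w - QF n F w • r := ⟨_, rfl⟩
  have hpy : B p y = 0 := by
    rw [hy, B_sub_right, B_smul_right, h3, hpr]; ring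
  have hry : B r y = 1 := by
    rw [hy, B_sub_right, B_smul_right, h4, hBrr]; ring
  have hQy : QF n F y = 0 := by
    rw [hy, Q_sub, Q_smul, hQr, B_smul_right, h4']; ring
  have hyp : B y p = 0 := by rw [B_comm, hpy]
  have hyr : B y r = 1 := by rw [B_comm, hry]
  obtain ⟨x, hx⟩ : ∃ x : Vec n F, x = wp - QF n F wp • p - B wp y • r := ⟨_, rfl⟩
  have hpx : B p x = 1 := by
    rw [hx, B_sub_right, B_sub_right, B_smul_right, B_smul_right, h1, hBpp, hpr]; ring
  have hrx : B r x = 0 := by
    rw [hx, B_sub_right, B_sub_right, B_smul_right, B_smul_right, h2, hrp, hBrr]; ring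
  have hQx : QF n F x = 0 := by
    rw [hx, Q_sub, Q_sub, Q_smul, Q_smul, hQp, hQr, B_smul_right, B_smul_right, B_sub_left,
      B_smul_left, h1', h2', hpr]
    ring
  have hxy : B x y = 0 := by
    rw [hx, B_sub_left, B_sub_left, B_smul_left, B_smul_left, hpy, hry]; ring
  refine ⟨x, y, ⟨?_, hQx, hQy, ?_⟩, hpx, hpy, hrx, hry, ?_⟩
  · rw [LinearIndependent.pair_iff]
    intro a b hab
    have e1 : B p (a • x + b • y) = 0 := by rw [hab, B_zero_right]
    have e2 : B r (a • x + b • y) = 0 := by rw [hab, B_zero_right]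
    rw [B_add_right, B_smul_right, B_smul_right, hpx, hpy] at e1
    rw [B_add_right, B_smul_right, B_smul_right, hrx, hry] at e2
    constructor
    · linear_combination e1
    · linear_combination e2
  · rw [Q_add, hQx, hQy, hxy]; ring
  · intro s
    rw [hy, B_sub_right, B_smul_right]

end Cfsg.Agent.Lib.Helper24.Siegel
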