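-- Project SIEGEL (S5072): package [CONN2A] (helper24).
import Mathlib
import Cfsg.Agent.Lib.Helper31.Siegel.Defs
import Cfsg.Agent.Lib.Helper24.Siegel.Tools

set_option autoImplicit false
open scoped Matrix

namespace Cfsg.Agent.Lib.Helper24.Siegel

open Cfsg.Agent.Lib.Helper31.Siegel

universe u

theorem pkgConn2A (hD : PkgDual.{u}) : PkgConn2A.{u} := by
  intro n F _ p r s hpr hps hind hrs
  obtain ⟨w', hw'⟩ := hD n F 3 ![p, r, s] hind
  have h00 : B p (w' 0) = 1 := by simpa using hw' 0 0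
  have h10 : B r (w' 0) = 0 := by simpa using hw' 1 0
  have h01 : B p (w' 1) = 0 := by simpa using hw' 0 1
  have h11 : B r (w' 1) = 1 := by simpa using hw' 1 1
  have h21 : B s (w' 1) = 0 := by simpa using hw' 2 1
  have h02 : B p (w' 2) = 0 := by simpa using hw' 0 2
  have h12 : B r (w' 2) = 0 := by simpa using hw' 1 2
  have h22 : B s (w' 2) = 1 := by simpa using hw' 2 2
  obtain ⟨x, y, hxy, hpx, hpy, hrx, hry, hsy⟩ := sing_dual (wp := w' 0) (w := w' 1 + w' 2)
    hpr.2.1 hpr.2.2.1 (sl_B hpr) h00 h10 (by rw [B_add_right, h01, h02]; ring)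
    (by rw [B_add_right, h11, h12]; ring)
  refine ⟨x, y, hxy, ?_, ?_⟩
  · unfold Opp
    rw [hpx, hpy, hrx, hry]
    norm_num
  · unfold Opp
    rw [hpx, hpy, hsy, B_add_right, h21, h22, B_comm s r, hrs]
    norm_num

end Cfsg.Agent.Lib.Helper24.Siegel
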