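-- Project SIEGEL (S5072): package [CONN2C] (helper24).
import Mathlib
import Cfsg.Agent.Lib.Helper31.Siegel.Defs
import Cfsg.Agent.Lib.Helper24.Siegel.Tools

set_option autoImplicit false
open scoped Matrix

namespace Cfsg.Agent.Lib.Helper24.Siegel

open Cfsg.Agent.Lib.Helper31.Siegel

universe u

theorem pkgConn2C (hD : PkgDual.{u}) : PkgConn2C.{u} := by
  intro n F _ p r s hpr hps hdep
  obtain ⟨w', hw'⟩ := hD n F 2 ![p, r] hpr.1
  have h00 : B p (w' 0) = 1 := by simpa using hw' 0 0
  have h10 : B r (w' 0) = 0 := by simpa using hw' 1 0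
  have h01 : B p (w' 1) = 0 := by simpa using hw' 0 1
  have h11 : B r (w' 1) = 1 := by simpa using hw' 1 1
  obtain ⟨x, y, hxy, hpx, hpy, hrx, hry, -⟩ := sing_dual (wp := w' 0) (w := w' 1)
    hpr.2.1 hpr.2.2.1 (sl_B hpr) h00 h10 h01 h11
  -- a non-trivial relation between p, r, s
  rw [Fintype.linearIndependent_iff] at hdep
  push Not at hdep
  obtain ⟨g, hg, i, hi⟩ := hdep
  rw [Fin.sum_univ_three] at hg
  have hg' : g 0 • p + g 1 • r + g 2 • s = 0 := by simpa using hg
  have hprI := LinearIndependent.pair_iff.mp hpr.1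
  have hpsI := LinearIndependent.pair_iff.mp hps.1
  have hg2 : g 2 ≠ 0 := by
    intro h2
    rw [h2, zero_smul, add_zero] at hg'
    obtain ⟨a0, a1⟩ := hprI _ _ hg'
    fin_cases i
    · exact hi a0
    · exact hi a1
    · exact hi h2
  have hg1 : g 1 ≠ 0 := by
    intro h1
    rw [h1, zero_smul, add_zero] at hg'
    exact hg2 (hpsI _ _ hg').2
  have e : B (g 0 • p + g 1 • r + g 2 • s) y = 0 := by rw [hg', B_zero_left]
  rw [B_add_left, B_add_left, B_smul_left, B_smul_left, B_smul_left, hpy, hry] at e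
  have hsy : B s y ≠ 0 := by
    intro h0
    rw [h0] at e
    apply hg1
    linear_combination e
  refine ⟨x, y, hxy, ?_, ?_⟩
  · unfold Opp
    rw [hpx, hpy, hrx, hry]
    norm_num
  · unfold Opp
    rw [hpx, hpy]
    simpa using hsy

end Cfsg.Agent.Lib.Helper24.Siegel
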