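-- Project SIEGEL (S5072): package [MEET] (helper24).
import Mathlib
import Cfsg.Agent.Lib.Helper31.Siegel.Defs
import Cfsg.Agent.Lib.Helper24.Siegel.Tools

set_option autoImplicit false
open scoped Matrix

namespace Cfsg.Agent.Lib.Helper24.Siegel

open Cfsg.Agent.Lib.Helper31.Siegel

universe u

variable {n : ℕ} {F : Type u} [Field F]

theorem meet_aux {p₁ s t : Vec n F} (hQ : QF n F p₁ = 0) (hne : p₁ ≠ 0) (hB : B p₁ s = 0)
    (hst : IsSingLine s t) :
    ∃ s' t' : Vec n F, Reb s t s' t' ∧ (p₁ = s' ∨ IsSingLine p₁ s') := by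
  by_cases hind : LinearIndependent F ![p₁, s]
  · refine ⟨s, t, ⟨1, 0, 0, 1, by norm_num, by simp, by simp⟩, Or.inr ⟨hind, hQ, hst.2.1, ?_⟩⟩
    rw [Q_add, hQ, hst.2.1, hB]; ring
  · rw [LinearIndependent.pair_iff] at hind
    push Not at hind
    obtain ⟨a, b, hab, hne'⟩ := hind
    have hs0 : s ≠ 0 := sl_ne_left hst
    have ha : a ≠ 0 := by
      intro h0
      rw [h0, zero_smul, zero_add] at hab
      rcases smul_eq_zero.mp hab with h | h
      · exact hne' h0 h
      · exact hs0 h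
    have hb : b ≠ 0 := by
      intro h0
      rw [h0, zero_smul, add_zero] at hab
      rcases smul_eq_zero.mp hab with h | h
      · exact ha h
      · exact hne h
    have hp : p₁ = (-(b / a)) • s + (0 : F) • t := by
      have h1 : a • p₁ = -(b • s) := eq_neg_of_add_eq_zero_left hab
      have h2 : p₁ = a⁻¹ • (a • p₁) := by rw [smul_smul, inv_mul_cancel₀ ha, one_smul]
      rw [h2, h1, zero_smul, add_zero, smul_neg, smul_smul, neg_smul]
      congr 2
      field_simp
    refine ⟨p₁, t, ⟨-(b / a), 0, 0, 1, ?_, hp, by simp⟩, Or.inl rfl⟩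
    have : b / a ≠ 0 := div_ne_zero hb ha
    simpa using this

theorem pkgMeet : PkgMeet.{u} := by
  intro n F _ p r s t hpr hst
  by_cases hps : B p s = 0
  · obtain ⟨s', t', h1, h2⟩ := meet_aux hpr.2.1 (sl_ne_left hpr) hps hst
    exact ⟨p, r, s', t', ⟨1, 0, 0, 1, by norm_num, by simp, by simp⟩, h1, h2⟩
  · obtain ⟨p₁, hp₁⟩ : ∃ p₁ : Vec n F, p₁ = (-(B r s / B p s)) • p + (1 : F) • r := ⟨_, rfl⟩
    have hprB := sl_B hpr
    have hQ : QF n F p₁ = 0 := by
      rw [hp₁, Q_add, Q_smul, Q_smul, hpr.2.1, hpr.2.2.1, B_smul_left, B_smul_right, hprB]; ring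
    have hne : p₁ ≠ 0 := by
      intro h0
      rw [hp₁] at h0
      have := (LinearIndependent.pair_iff.mp hpr.1 _ _ h0).2
      exact one_ne_zero this
    have hB : B p₁ s = 0 := by
      rw [hp₁, B_add_left, B_smul_left, B_smul_left]
      field_simp
      ring
    obtain ⟨s', t', h1, h2⟩ := meet_aux hQ hne hB hst
    refine ⟨p₁, p, s', t', ⟨-(B r s / B p s), 1, 1, 0, by norm_num, hp₁, by simp⟩, h1, h2⟩

end Cfsg.Agent.Lib.Helper24.Siegel
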